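import Cfsg.Agent.H540.E8C.O8.Iface

/-!
# S5919, the row `Ω₈⁺(2)`, task O8-GEN: the 24 root elements generate (helper161)
-/

set_option autoImplicit false

namespace Cfsg.Agent.H161.O8.Gen

open Cfsg.Agent.H540.E8C.O8 Cfsg.Agent.StdO8.Model Cfsg.Agent.StdO8.Code Cfsg.Agent.LieClassical.OrthCore

/-- the 24 pairs -/
def L24 : List (ℕ × ℕ) := gU ++ gT ++ gT' ++ gU'

/-- the group generated by the 24 root elements -/
def K : Subgroup Om := Subgroup.closure {g : Om | ∃ p ∈ gU ++ gT ++ gT' ++ gU', g = gen p}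

theorem gen_mem {p : ℕ × ℕ} (h : p ∈ L24) : gen p ∈ K := Subgroup.subset_closure ⟨p, h, rfl⟩

theorem word_mem {l : List (ℕ × ℕ)} (h : ∀ p ∈ l, p ∈ L24) : word l ∈ K := by
  induction l with
  | nil => exact one_mem _
  | cons p l ih =>
    rw [word_cons]
    exact mul_mem (gen_mem (h p (List.mem_cons_self ..))) (ih fun p hp => h p (List.mem_cons_of_mem _ hp))

/-- the factors of `X(e₁, w)` -/
def fac (w : ℕ) : List (ℕ × ℕ) := ([2, 4, 8, 32, 64, 128].filter fun b => w &&& b != 0).map fun b => (1, b)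

theorem fac_mem (w : ℕ) : ∀ p ∈ fac w, p ∈ L24 := by
  intro p hp
  obtain ⟨b, hb, rfl⟩ := List.mem_map.mp hp
  have h1 := (List.mem_filter.mp hb).1
  have h2 : ∀ b ∈ [2, 4, 8, 32, 64, 128], (1, b) ∈ L24 := by decide
  exact h2 b h1

theorem fac_chk : ∀ w : Fin 256, Bn 1 w.1 = false → same [(1, w.1)] (fac w.1) = true := by decide +kernel

theorem gen_one_mem {w : ℕ} (hw : w < 256) (h : Bn 1 w = false) : gen (1, w) ∈ K := by
  rw [← word_single, word_eq (fac_chk ⟨w, hw⟩ h)]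
  exact word_mem (fac_mem w)

/-- words mapping `e₁` to the nonzero singular vectors -/
def tab : List (ℕ × List (ℕ × ℕ)) :=
  [(1, []), (2, [(1, 32), (2, 16)]), (3, [(2, 16)]), (4, [(1, 64), (4, 16)]), (5, [(4, 16)]),
   (6, [(4, 32), (1, 32), (2, 16)]), (7, [(4, 16), (2, 16)]), (8, [(1, 128), (8, 16)]), (9, [(8, 16)]),
   (10, [(8, 32), (1, 32), (2, 16)]), (11, [(8, 16), (2, 16)]), (12, [(8, 64), (1, 64), (4, 16)]),
   (13, [(8, 16), (4, 16)]), (14, [(8, 32), (4, 32), (1, 32), (2, 16)]), (15, [(8, 16), (4, 16), (2, 16)]),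
   (16, [(1, 2), (16, 32), (1, 32), (2, 16)]), (18, [(16, 32), (1, 32), (2, 16)]),
   (20, [(16, 64), (1, 64), (4, 16)]), (22, [(16, 32), (4, 32), (1, 32), (2, 16)]),
   (24, [(16, 128), (1, 128), (8, 16)]), (26, [(16, 32), (8, 32), (1, 32), (2, 16)]),
   (28, [(16, 64), (8, 64), (1, 64), (4, 16)]), (30, [(16, 32), (8, 32), (4, 32), (1, 32), (2, 16)]),
   (32, [(1, 2), (16, 32)]), (33, [(16, 32)]), (36, [(32, 64), (1, 64), (4, 16)]), (37, [(16, 32), (4, 16)]),
   (40, [(32, 128), (1, 128), (8, 16)]), (41, [(16, 32), (8, 16)]), (44, [(32, 64), (8, 64), (1, 64), (4, 16)]),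
   (45, [(16, 32), (8, 16), (4, 16)]), (48, [(1, 2), (16, 32), (2, 16)]), (51, [(16, 32), (2, 16)]),
   (52, [(1, 2), (16, 32), (4, 16), (2, 16)]), (55, [(16, 32), (4, 16), (2, 16)]),
   (56, [(1, 2), (16, 32), (8, 16), (2, 16)]), (59, [(16, 32), (8, 16), (2, 16)]),
   (60, [(1, 2), (16, 32), (8, 16), (4, 16), (2, 16)]), (63, [(16, 32), (8, 16), (4, 16), (2, 16)]),
   (64, [(1, 4), (16, 64)]), (65, [(16, 64)]), (66, [(32, 64), (1, 32), (2, 16)]), (67, [(16, 64), (2, 16)]),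
   (72, [(64, 128), (1, 128), (8, 16)]), (73, [(16, 64), (8, 16)]), (74, [(32, 64), (8, 32), (1, 32), (2, 16)]),
   (75, [(16, 64), (8, 16), (2, 16)]), (80, [(1, 4), (16, 64), (4, 16)]),
   (82, [(1, 64), (16, 32), (1, 32), (2, 16)]), (85, [(16, 64), (4, 16)]), (87, [(16, 64), (4, 16), (2, 16)]),
   (88, [(1, 4), (16, 64), (8, 16), (4, 16)]), (90, [(1, 64), (16, 32), (8, 32), (1, 32), (2, 16)]),
   (93, [(16, 64), (8, 16), (4, 16)]), (95, [(16, 64), (8, 16), (4, 16), (2, 16)]),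
   (96, [(2, 64), (1, 2), (16, 32)]), (97, [(2, 64), (16, 32)]), (102, [(32, 64), (4, 32), (1, 32), (2, 16)]),
   (103, [(32, 64), (4, 16), (2, 16)]), (104, [(2, 64), (32, 128), (1, 128), (8, 16)]),
   (105, [(2, 64), (16, 32), (8, 16)]), (110, [(32, 64), (8, 32), (4, 32), (1, 32), (2, 16)]),
   (111, [(32, 64), (8, 16), (4, 16), (2, 16)]), (112, [(1, 64), (1, 2), (16, 32), (2, 16)]),
   (115, [(1, 64), (16, 32), (2, 16)]), (117, [(16, 64), (16, 32), (4, 16)]),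
   (118, [(1, 64), (16, 32), (4, 16), (2, 16)]), (120, [(1, 64), (1, 2), (16, 32), (8, 16), (2, 16)]),
   (123, [(1, 64), (16, 32), (8, 16), (2, 16)]), (125, [(16, 64), (16, 32), (8, 16), (4, 16)]),
   (126, [(1, 64), (16, 32), (8, 16), (4, 16), (2, 16)]), (128, [(1, 8), (16, 128)]), (129, [(16, 128)]),
   (130, [(32, 128), (1, 32), (2, 16)]), (131, [(16, 128), (2, 16)]), (132, [(64, 128), (1, 64), (4, 16)]),
   (133, [(16, 128), (4, 16)]), (134, [(32, 128), (4, 32), (1, 32), (2, 16)]),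
   (135, [(16, 128), (4, 16), (2, 16)]), (144, [(1, 8), (16, 128), (8, 16)]),
   (146, [(1, 128), (16, 32), (1, 32), (2, 16)]), (148, [(1, 128), (16, 64), (1, 64), (4, 16)]),
   (150, [(1, 128), (16, 32), (4, 32), (1, 32), (2, 16)]), (153, [(16, 128), (8, 16)]),
   (155, [(16, 128), (8, 16), (2, 16)]), (157, [(16, 128), (8, 16), (4, 16)]),
   (159, [(16, 128), (8, 16), (4, 16), (2, 16)]), (160, [(2, 128), (1, 2), (16, 32)]),
   (161, [(2, 128), (16, 32)]), (164, [(2, 128), (32, 64), (1, 64), (4, 16)]),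
   (165, [(2, 128), (16, 32), (4, 16)]), (170, [(32, 128), (8, 32), (1, 32), (2, 16)]),
   (171, [(32, 128), (8, 16), (2, 16)]), (174, [(32, 128), (8, 32), (4, 32), (1, 32), (2, 16)]),
   (175, [(32, 128), (8, 16), (4, 16), (2, 16)]), (176, [(1, 128), (1, 2), (16, 32), (2, 16)]),
   (179, [(1, 128), (16, 32), (2, 16)]), (180, [(1, 128), (1, 2), (16, 32), (4, 16), (2, 16)]),
   (183, [(1, 128), (16, 32), (4, 16), (2, 16)]), (185, [(16, 128), (16, 32), (8, 16)]),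
   (186, [(1, 128), (16, 32), (8, 16), (2, 16)]), (189, [(16, 128), (16, 32), (8, 16), (4, 16)]),
   (190, [(1, 128), (16, 32), (8, 16), (4, 16), (2, 16)]), (192, [(4, 128), (1, 4), (16, 64)]),
   (193, [(4, 128), (16, 64)]), (194, [(4, 128), (32, 64), (1, 32), (2, 16)]),
   (195, [(4, 128), (16, 64), (2, 16)]), (204, [(64, 128), (8, 64), (1, 64), (4, 16)]),
   (205, [(64, 128), (8, 16), (4, 16)]), (206, [(64, 128), (8, 32), (4, 32), (1, 32), (2, 16)]),
   (207, [(64, 128), (8, 16), (4, 16), (2, 16)]), (208, [(1, 128), (1, 4), (16, 64), (4, 16)]),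
   (210, [(1, 128), (1, 64), (16, 32), (1, 32), (2, 16)]), (213, [(1, 128), (16, 64), (4, 16)]),
   (215, [(1, 128), (16, 64), (4, 16), (2, 16)]), (217, [(16, 128), (16, 64), (8, 16)]),
   (219, [(16, 128), (16, 64), (8, 16), (2, 16)]), (220, [(1, 128), (16, 64), (8, 16), (4, 16)]),
   (222, [(1, 128), (16, 64), (8, 16), (4, 16), (2, 16)]), (224, [(2, 128), (2, 64), (1, 2), (16, 32)]),
   (225, [(2, 128), (2, 64), (16, 32)]), (230, [(2, 128), (32, 64), (4, 32), (1, 32), (2, 16)]),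
   (231, [(32, 64), (16, 128), (4, 16), (2, 16)]), (234, [(32, 128), (32, 64), (8, 32), (1, 32), (2, 16)]),
   (235, [(32, 128), (16, 64), (8, 16), (2, 16)]), (236, [(64, 128), (32, 64), (8, 64), (1, 64), (4, 16)]),
   (237, [(64, 128), (16, 32), (8, 16), (4, 16)]), (240, [(1, 128), (1, 64), (1, 2), (16, 32), (2, 16)]),
   (243, [(1, 128), (1, 64), (16, 32), (2, 16)]), (245, [(16, 64), (2, 128), (16, 32), (4, 16)]),
   (246, [(1, 128), (1, 64), (16, 32), (4, 16), (2, 16)]), (249, [(16, 128), (2, 64), (16, 32), (8, 16)]),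
   (250, [(1, 128), (1, 64), (16, 32), (8, 16), (2, 16)]),
   (252, [(1, 128), (16, 64), (16, 32), (8, 16), (4, 16)]),
   (255, [(64, 128), (16, 32), (8, 16), (4, 16), (2, 16)])]

theorem tab_chk : tab.all (fun x => (x.2.all fun p => L24.contains p) && x.2.all ok && (ev x.2 1 == x.1)) = true := by
  decide +kernel

theorem tab_all : ∀ b : Fin 256, b.1 ≠ 0 → qn b.1 = false → (tab.any fun x => x.1 == b.1) = true := by
  decide +kernel

/-- transitivity on the nonzero singular vectors -/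
theorem exists_word {b : ℕ} (hb : b < 256) (h0 : b ≠ 0) (hq : qn b = false) :
    ∃ l : List (ℕ × ℕ), word l ∈ K ∧ ((word l : Om) : V ≃ₗ[ZMod 2] V) (dec 1) = dec b := by
  have h1 := tab_all ⟨b, hb⟩ h0 hq
  rw [List.any_eq_true] at h1
  obtain ⟨x, hx, hxb⟩ := h1
  have h2 := List.all_eq_true.mp tab_chk x hx
  rw [Bool.and_eq_true, Bool.and_eq_true, beq_iff_eq, List.all_eq_true (l := x.2)] at h2
  obtain ⟨⟨h3, h4⟩, h5⟩ := h2
  refine ⟨x.2, word_mem fun p hp => List.contains_iff_mem.mp (h3 p hp), ?_⟩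
  rw [word_dec h4, h5, beq_iff_eq.mp hxb]

theorem X_zero_left (w : V) : X 0 w = 1 := by
  ext v : 1
  rw [X_apply' q_zero (B_zero_left w), B_zero_left]
  simp

/-- all Siegel transformations are in `K` -/
theorem X_mem_K (u w : V) (hu : q u = 0) (hw : B u w = 0) : (⟨X u w, X_mem u w⟩ : Om) ∈ K := by
  by_cases h0 : u = 0
  · subst h0
    have : (⟨X 0 w, X_mem 0 w⟩ : Om) = 1 := Subtype.ext (X_zero_left w)
    rw [this]
    exact one_mem _
  obtain ⟨a, ha, rfl⟩ := dec_surj u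
  have ha0 : a ≠ 0 := fun h => h0 (by rw [h, dec_zero])
  have hqa : qn a = false := by
    rw [q_dec] at hu
    exact cc_eq_zero hu
  obtain ⟨l, hl, hla⟩ := exists_word ha ha0 hqa
  obtain ⟨w', hw', hww⟩ := dec_surj (((word l : Om) : V ≃ₗ[ZMod 2] V)⁻¹ w)
  have hO : ((word l : Om) : V ≃ₗ[ZMod 2] V) ∈ O8 := Om_le (word l).2
  have hww' : ((word l : Om) : V ≃ₗ[ZMod 2] V) (dec w') = w := by
    rw [hww]
    exact LinearEquiv.apply_symm_apply _ _
  have hB : Bn 1 w' = false := by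
    apply cc_eq_zero
    rw [← B_dec, ← O8_B hO, hla, hww', hw]
  have h1 := gen_one_mem hw' hB
  have h2 : (⟨X (dec a) w, X_mem _ _⟩ : Om) = word l * gen (1, w') * (word l)⁻¹ := by
    apply Subtype.ext
    have h3 := X_conj hO (dec 1) (dec w')
    rw [hla, hww'] at h3
    exact h3.symm
  rw [h2]
  exact mul_mem (mul_mem hl h1) (inv_mem hl)

/-- **Task O8-GEN** -/
theorem gen24 : Gen24 := by
  show K = ⊤
  rw [eq_top_iff]
  rintro ⟨g, hg⟩ -
  have key : ∀ g (hg : g ∈ Om), (⟨g, hg⟩ : Om) ∈ K := by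
    intro g hg
    refine Subgroup.closure_induction (p := fun g hg => (⟨g, hg⟩ : Om) ∈ K) ?_ ?_ ?_ ?_ hg
    · rintro _ ⟨u, w, hu, hw, rfl⟩
      have h1 := X_mem_K u w hu hw
      have h2 : (⟨X u w, X_mem u w⟩ : Om) = ⟨siegel q u w hu hw, siegel_mem_E hu hw⟩ := Subtype.ext (X_eq hu hw)
      rw [h2] at h1
      exact h1
    · exact one_mem K
    · intro x y hx hy h1 h2
      exact mul_mem h1 h2
    · intro x hx h1
      exact inv_mem h1
  exact key g hg

end Cfsg.Agent.H161.O8.Gen
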